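import Cfsg.Agent.J1.Cent
import Cfsg.Agent.H62.W2
import Cfsg.Prelude.Def_LocalEven
import Cfsg.Prelude.Def_Spor_J1

/-!
# S2755, piece P5d4 (helper60): `J1` has abelian Sylow 2-subgroups and involves `S3`
-/

set_option autoImplicit false
set_option linter.style.haveILetI false
set_option linter.unusedSectionVars false

namespace Cfsg.Agent.JY.Rt

/-- abelian Sylow subgroups: one suffices -/
theorem ab_of_one {G : Type*} [Group G] [Finite G] {p : ℕ} [Fact p.Prime] (S : Sylow p G)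
    (h : ∀ x ∈ S, ∀ y ∈ S, x * y = y * x) (T : Sylow p G) : ∀ x ∈ T, ∀ y ∈ T, x * y = y * x := by
  obtain ⟨g, rfl⟩ := MulAction.exists_smul_eq G S T
  intro x hx y hy
  have hx' : g⁻¹ * x * g ∈ S := by
    have h1 : x ∈ (g • S : Sylow p G).toSubgroup := hx
    rw [Sylow.coe_subgroup_smul, Subgroup.mem_pointwise_smul_iff_inv_smul_mem] at h1
    have h2 : (MulAut.conj g)⁻¹ • x = g⁻¹ * x * g := by
      rw [← map_inv, MulAut.smul_def, MulAut.conj_apply, inv_inv]
    rw [h2] at h1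
    exact h1
  have hy' : g⁻¹ * y * g ∈ S := by
    have h1 : y ∈ (g • S : Sylow p G).toSubgroup := hy
    rw [Sylow.coe_subgroup_smul, Subgroup.mem_pointwise_smul_iff_inv_smul_mem] at h1
    have h2 : (MulAut.conj g)⁻¹ • y = g⁻¹ * y * g := by
      rw [← map_inv, MulAut.smul_def, MulAut.conj_apply, inv_inv]
    rw [h2] at h1
    exact h1
  have h3 := h _ hx' _ hy'
  calc x * y = g * ((g⁻¹ * x * g) * (g⁻¹ * y * g)) * g⁻¹ := by group
    _ = g * ((g⁻¹ * y * g) * (g⁻¹ * x * g)) * g⁻¹ := by rw [h3]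
    _ = y * x := by group

/-- abelian Sylow subgroups pass to embedded groups -/
theorem ab_of_inj {G H : Type*} [Group G] [Group H] [Finite H] {p : ℕ} [Fact p.Prime] (φ : G →* H)
    (hφ : Function.Injective φ)
    (h : ∀ S : Sylow p H, ∀ x ∈ S, ∀ y ∈ S, x * y = y * x) (T : Sylow p G) :
    ∀ x ∈ T, ∀ y ∈ T, x * y = y * x := by
  have hT : IsPGroup p (T.toSubgroup.map φ) := T.isPGroup'.map φ
  obtain ⟨Q, hQ⟩ := hT.exists_le_sylow
  intro x hx y hy
  apply hφ
  rw [map_mul, map_mul]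
  exact h Q _ (hQ ⟨x, hx, rfl⟩) _ (hQ ⟨y, hy, rfl⟩)

def a5 : alternatingGroup (Fin 5) := ⟨Equiv.swap 0 1 * Equiv.swap 3 4, by rw [Equiv.Perm.mem_alternatingGroup]; decide⟩
def b5 : alternatingGroup (Fin 5) := ⟨Equiv.swap 0 1 * Equiv.swap 1 2, by rw [Equiv.Perm.mem_alternatingGroup]; decide⟩

theorem a5_inv : a5 * b5 * a5⁻¹ = b5⁻¹ := by decide

theorem a5_sq : a5 ^ 2 = 1 := by decide

theorem a5_ne : a5 ≠ 1 := by decide

theorem b5_three : b5 ^ 3 = 1 := by decide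

theorem b5_ne : b5 ≠ 1 := by decide

theorem s3_a5 : Involves (Equiv.Perm (Fin 3)) (alternatingGroup (Fin 5)) := by
  refine H62.involves_S3_of_inverted (x := a5) (y := b5) ⟨1, ?_⟩ b5_three b5_ne a5_inv
  rw [pow_one]
  haveI : Fact (Nat.Prime 2) := ⟨Nat.prime_two⟩
  exact orderOf_eq_prime a5_sq a5_ne

theorem j1_ab (S : Sylow 2 Cfsg.Spor.J1) : ∀ x ∈ S, ∀ y ∈ S, x * y = y * x := by
  haveI : Fact (Nat.Prime 2) := ⟨Nat.prime_two⟩
  have hf : (175560 : ℕ).factorization 2 = 3 := by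
    have h1 : (175560 : ℕ) = 2 ^ 3 * 21945 := by norm_num
    rw [h1, Nat.factorization_mul (by norm_num) (by norm_num), Nat.Prime.factorization_pow
      Nat.prime_two]
    have h2 : (21945 : ℕ).factorization 2 = 0 := Nat.factorization_eq_zero_of_not_dvd (by norm_num)
    simp [h2]
  refine ab_of_one (Sylow.ofCard J1.SJ (by rw [J1.card_SJ, J1.card_J, hf]; norm_num)) ?_ S
  intro x hx y hy
  exact J1.SJ_comm hx hy

/-- [P5d4] `J1` has abelian Sylow 2-subgroups and involves `S3` -/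
theorem j1 {G : Type*} [Group G] [Finite G] (h : Cfsg.Spor.IsoJ1 G) :
    (∀ S : Sylow 2 G, ∀ x ∈ S, ∀ y ∈ S, x * y = y * x) ∧
      Cfsg.Involves (Equiv.Perm (Fin 3)) G := by
  haveI : Fact (Nat.Prime 2) := ⟨Nat.prime_two⟩
  obtain ⟨e⟩ := h
  haveI : Finite Cfsg.Spor.J1 := Finite.of_equiv G e.toEquiv
  refine ⟨ab_of_inj e.toMonoidHom e.injective j1_ab, ?_⟩
  obtain ⟨c⟩ := J1.centralizer_iso
  refine H46.involves_of_injective s3_a5 ((e.symm.toMonoidHom.comp (Subgroup.subtype _)).comp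
    (c.symm.toMonoidHom.comp (MonoidHom.inr _ _))) ?_
  refine (e.symm.injective.comp (Subgroup.subtype_injective _)).comp
    (c.symm.injective.comp ?_)
  intro x y hxy
  exact (Prod.ext_iff.1 hxy).2

end Cfsg.Agent.JY.Rt
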