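import Cfsg.Agent.JY.SzC
import Cfsg.Prelude.Def_LocalEven

/-!
# S2755, piece P5d5 (helper60): the order of a Suzuki group is prime to 3
-/

set_option autoImplicit false
set_option linter.style.haveILetI false
set_option linter.unusedSectionVars false

namespace Cfsg.Agent.JY.Rt

open Cfsg Cfsg.Agent.Suz

theorem num3 (m : ℕ) : ¬ 3 ∣ (2 ^ (2 * m + 1)) ^ 2 * ((2 ^ (2 * m + 1)) ^ 2 + 1) *
    (2 ^ (2 * m + 1) - 1) := by
  have h1 : 2 ^ (2 * m + 1) % 3 = 2 := by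
    rw [pow_succ, pow_mul]
    have h2 : (2 ^ 2) ^ m % 3 = 1 := by
      rw [Nat.pow_mod]; norm_num
    omega
  obtain ⟨k, hk⟩ : ∃ k, 2 ^ (2 * m + 1) = 3 * k + 2 := ⟨2 ^ (2 * m + 1) / 3, by omega⟩
  rw [hk]
  intro h
  rw [Nat.Prime.dvd_mul Nat.prime_three, Nat.Prime.dvd_mul Nat.prime_three] at h
  rcases h with (h | h) | h
  · have := Nat.Prime.dvd_of_dvd_pow Nat.prime_three h
    omega
  · have e : (3 * k + 2) ^ 2 + 1 = 3 * (3 * k * k + 4 * k + 1) + 2 := by ring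
    rw [e] at h
    omega
  · omega

/-- [P5d5] -/
theorem sz {G : Type*} [Group G] [Finite G] (h : Cfsg.Lie.IsoSuzuki G) : ¬ 3 ∣ Nat.card G := by
  obtain ⟨F, _, _, m, hm, hF, ⟨e⟩⟩ := h
  haveI := charP_two hF
  obtain ⟨e'⟩ := nonempty_lieEquiv hm hF
  rw [Nat.card_congr (e.trans e'.symm).toEquiv, sz_card hm hF]
  exact num3 m

end Cfsg.Agent.JY.Rt
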