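import Cfsg.Agent.JY.RtJ1
import Cfsg.Agent.H14.SubField

/-!
# S2755, pieces P5d3, P5d6 (helper60): abelian Sylow 2-subgroups of `PSL₂(q)`, `q ≡ 3, 5 (mod 8)`, and of
groups of Ree type
-/

set_option autoImplicit false
set_option linter.style.haveILetI false
set_option linter.unusedSectionVars false

namespace Cfsg.Agent.JY.Rt

open Cfsg

theorem not_eight_dvd {F : Type*} [Field F] [Fintype F] (q : ℕ) (hF : Fintype.card F = q)
    (hq : q % 8 = 3 ∨ q % 8 = 5) :
    ¬ 8 ∣ Nat.card (Matrix.ProjectiveSpecialLinearGroup (Fin 2) F) := by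
  have h1 := H14.SubField.card_PSL2_odd (F := F) (by rw [hF, Nat.odd_iff]; omega)
  rw [hF] at h1
  rintro ⟨c, hc⟩
  rw [hc] at h1
  obtain ⟨k, hk⟩ : ∃ k, q = 8 * k + 3 ∨ q = 8 * k + 5 := ⟨q / 8, by omega⟩
  rcases hk with rfl | rfl
  · have e : 8 * k + 3 - 1 = 8 * k + 2 := by omega
    rw [e] at h1
    have e2 : (8 * k + 3) * ((8 * k + 2) * (8 * k + 3 + 1)) =
        16 * (32 * k ^ 3 + 36 * k ^ 2 + 13 * k + 1) + 8 := by ring
    rw [e2] at h1
    omega
  · have e : 8 * k + 5 - 1 = 8 * k + 4 := by omega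
    rw [e] at h1
    have e2 : (8 * k + 5) * ((8 * k + 4) * (8 * k + 5 + 1)) =
        16 * (32 * k ^ 3 + 60 * k ^ 2 + 37 * k + 7) + 8 := by ring
    rw [e2] at h1
    omega

/-- a 2-group of order not divisible by 8 is abelian -/
theorem comm_of_not_eight {P : Type*} [Group P] [Finite P] (hP : IsPGroup 2 P) (h8 : ¬ 8 ∣ Nat.card P) :
    ∀ x y : P, x * y = y * x := by
  haveI : Fact (Nat.Prime 2) := ⟨Nat.prime_two⟩
  obtain ⟨n, hn⟩ := IsPGroup.iff_card.1 hP
  have hn3 : n < 3 := by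
    by_contra h
    apply h8
    rw [hn]
    exact pow_dvd_pow 2 (show 3 ≤ n by omega)
  interval_cases n
  · intro x y
    have h1 : Subsingleton P := (Nat.card_eq_one_iff_unique.1 (by rw [hn, pow_zero])).1
    exact Subsingleton.elim _ _
  · haveI := isCyclic_of_prime_card (α := P) (p := 2) (by rw [hn, pow_one])
    letI := IsCyclic.commGroup (α := P)
    exact fun x y => mul_comm x y
  · have h2 := IsPGroup.isMulCommutative_of_card_eq_prime_sq (p := 2) hn
    exact fun x y => h2.is_comm.comm x y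

/-- [P5d3] -/
theorem psl2_38_ab {F : Type*} [Field F] [Fintype F] (q : ℕ) (hF : Fintype.card F = q)
    (hq : q % 8 = 3 ∨ q % 8 = 5)
    (S : Sylow 2 (Matrix.ProjectiveSpecialLinearGroup (Fin 2) F)) :
    ∀ x ∈ S, ∀ y ∈ S, x * y = y * x := by
  intro x hx y hy
  have h1 := comm_of_not_eight S.isPGroup'
    (fun h => not_eight_dvd q hF hq (h.trans (Subgroup.card_subgroup_dvd_card S.toSubgroup)))
    ⟨x, hx⟩ ⟨y, hy⟩
  exact congrArg Subtype.val h1

theorem three_pow_mod (n : ℕ) : 3 ^ (2 * n + 1) % 8 = 3 := by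
  rw [pow_succ, pow_mul, Nat.mul_mod, Nat.pow_mod]
  norm_num

/-- [P5d6] groups of Ree type have abelian Sylow 2-subgroups -/
theorem ree_ab {G : Type*} [Group G] [Finite G] (h : Cfsg.IsReeType G) :
    ∀ S : Sylow 2 G, ∀ x ∈ S, ∀ y ∈ S, x * y = y * x := by
  haveI : Fact (Nat.Prime 2) := ⟨Nat.prime_two⟩
  obtain ⟨-, -, t, K, n, hn, ht, hodd, ⟨hZ, hK, hcomm, hinf, hsup⟩, F, _, _, hF, ⟨e⟩⟩ := h
  set C := Subgroup.centralizer ({t} : Set G) with hC
  let ψ : (Subgroup.zpowers t) × K →* G :=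
    MonoidHom.noncommCoprod (Subgroup.zpowers t).subtype K.subtype
      (fun a b => hcomm a a.2 b b.2)
  have hψ : ∀ a, ψ a = (a.1 : G) * (a.2 : G) := fun a => rfl
  have hr : ψ.range = C := by
    have h1 := MonoidHom.noncommCoprod_range (Subgroup.zpowers t).subtype K.subtype
      (fun a b => hcomm a a.2 b b.2)
    rw [Subgroup.range_subtype, Subgroup.range_subtype, hsup] at h1
    exact h1
  have hinj : Function.Injective ψ := by
    rw [injective_iff_map_eq_one]
    rintro ⟨z, k⟩ h1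
    rw [hψ] at h1
    have h2 : (z : G) = (k : G)⁻¹ := eq_inv_of_mul_eq_one_left h1
    have h3 : (z : G) ∈ Subgroup.zpowers t ⊓ K :=
      Subgroup.mem_inf.2 ⟨z.2, h2 ▸ inv_mem k.2⟩
    rw [hinf, Subgroup.mem_bot] at h3
    have h4 : (k : G) = 1 := by
      rw [h3] at h2
      exact inv_eq_one.1 h2.symm
    exact Prod.ext (Subtype.ext h3) (Subtype.ext h4)
  obtain ⟨T⟩ : Nonempty (Sylow 2 C) := inferInstance
  -- `T` is a Sylow 2-subgroup of `G`
  have hP : IsPGroup 2 (T.toSubgroup.map C.subtype) := T.isPGroup'.map _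
  obtain ⟨S, hS⟩ := hP.exists_le_sylow
  have hST : S.toSubgroup = T.toSubgroup.map C.subtype := by
    symm
    apply Subgroup.eq_of_le_of_card_ge hS
    have h1 : Nat.card (T.toSubgroup.map C.subtype) = Nat.card T :=
      Nat.card_congr (T.toSubgroup.equivMapOfInjective _ C.subtype_injective).toEquiv.symm
    rw [h1, T.card_eq_multiplicity]
    have h2 := S.card_eq_multiplicity
    rw [h2, ← C.card_mul_index, Nat.factorization_mul Nat.card_pos.ne' Subgroup.index_ne_zero_of_finite]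
    have h3 : C.index.factorization 2 = 0 :=
      Nat.factorization_eq_zero_of_not_dvd (fun h => by
        rw [Nat.odd_iff] at hodd
        omega)
    rw [Finsupp.add_apply, h3, add_zero]
  have hSC : S.toSubgroup ≤ C := by
    rw [hST]; exact Subgroup.map_subtype_le _
  apply ab_of_one S
  -- the projection
  set R : Subgroup K := (S.toSubgroup.comap ψ).map (MonoidHom.snd _ _) with hR
  have hRp : IsPGroup 2 R := (S.isPGroup'.comap_of_injective ψ hinj).map _
  have hRc := comm_of_not_eight hRp (fun h => by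
    have h1 : ¬ 8 ∣ Nat.card K := by
      rw [Nat.card_congr e.toEquiv]
      exact not_eight_dvd _ hF (Or.inl (three_pow_mod n))
    exact h1 (h.trans (Subgroup.card_subgroup_dvd_card R)))
  intro x hx y hy
  obtain ⟨a, ha⟩ : x ∈ ψ.range := by rw [hr]; exact hSC hx
  obtain ⟨b, hb⟩ : y ∈ ψ.range := by rw [hr]; exact hSC hy
  have haR : a.2 ∈ R := ⟨a, by rw [SetLike.mem_coe, Subgroup.mem_comap, ha]; exact hx, rfl⟩
  have hbR : b.2 ∈ R := ⟨b, by rw [SetLike.mem_coe, Subgroup.mem_comap, hb]; exact hy, rfl⟩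
  have h2 : a.2 * b.2 = b.2 * a.2 := congrArg Subtype.val (hRc ⟨a.2, haR⟩ ⟨b.2, hbR⟩)
  have h1 : a.1 * b.1 = b.1 * a.1 := by
    obtain ⟨i, hi⟩ := Subgroup.mem_zpowers_iff.1 a.1.2
    obtain ⟨j, hj⟩ := Subgroup.mem_zpowers_iff.1 b.1.2
    apply Subtype.ext
    rw [Subgroup.coe_mul, Subgroup.coe_mul, ← hi, ← hj, ← zpow_add, ← zpow_add, add_comm]
  rw [← ha, ← hb, ← map_mul, ← map_mul]
  exact congrArg ψ (Prod.ext h1 h2)

end Cfsg.Agent.JY.Rt
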